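import Cfsg.Agent.H217.Odm.Eng
import Cfsg.Agent.H257.El.Row.J3
import Cfsg.Agent.H984.PQR.RowJ3

/-!
# S4785: the row of `J₃` (helper984)
-/

set_option autoImplicit false
set_option maxRecDepth 100000

namespace Cfsg.Agent.H984.Odm.RowJ3

open Cfsg Cfsg.Agent.OrdDiv Cfsg.Agent.H257.El Cfsg.Agent.H453.OddM Cfsg.Agent.H217.Odm
open Cfsg.Spor Cfsg.Agent.J3.Core Cfsg.Agent.J3.Tab Cfsg.Agent.J3.Mono Cfsg.Agent.J3.Elts
open Cfsg.Agent.H984.PQR.RowJ3

universe u

theorem chkA3 : beqL (cols (powT (tA (1, 0)) 3)) (cols (tS 0)) = true := by decide +kernel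
theorem chkP : beqL (cols (powT (compT tC (compT (compT (tA (1, 0)) tC) (powT (tA (1, 0)) 2))) 3)) (cols (tS 0)) = true := by
  decide +kernel
theorem chkN : Nat.beq ((cols (compT tC (compT tC (compT (compT (tA (1, 0)) tC) (powT (tA (1, 0)) 2))))).getD 1 0)
    ((cols (compT (compT tC (compT (compT (tA (1, 0)) tC) (powT (tA (1, 0)) 2))) tC)).getD 1 0) = false := by
  decide +kernel

theorem real_three {F : Type} [Field F] [Fintype F] {ω : F} (hF : Fintype.card F = 4) (hω : ω ^ 2 + ω + 1 = 0) :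
    ∃ x : J3 F ω, orderOf x = 3 ∧ IsReal x := by
  have H := good_of_card hF hω
  obtain ⟨G⟩ := exists_gens hF H
  set s := G.c with hs
  set t := G.a (1, 0) * G.c * G.a (1, 0) ^ 2 with ht
  have rt : RepG ω (compT (compT (tA (1, 0)) tC) (powT (tA (1, 0)) 2)) t :=
    ((repa H G _).mul (repc H G)).mul ((repa H G _).pow H 2)
  have hs2 : s ^ 2 = 1 := RepG.ext ((repc H G).pow H 2) (repG_one H) (beqL_eq chkC)
  have ha3 : G.a (1, 0) ^ 3 = 1 := RepG.ext ((repa H G _).pow H 3) (repG_one H) (beqL_eq chkA3)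
  have ht2 : t ^ 2 = 1 := by
    rw [ht, pow_two]
    calc G.a (1, 0) * G.c * G.a (1, 0) ^ 2 * (G.a (1, 0) * G.c * G.a (1, 0) ^ 2)
        = G.a (1, 0) * G.c * (G.a (1, 0) ^ 3) * G.c * G.a (1, 0) ^ 2 := by rw [pow_succ (G.a (1, 0)) 2]; group
      _ = G.a (1, 0) * (G.c ^ 2) * G.a (1, 0) ^ 2 := by rw [ha3, pow_two G.c]; group
      _ = G.a (1, 0) ^ 3 := by rw [← hs, hs2, mul_one, ← pow_succ']
      _ = 1 := ha3
  have hst : (s * t) ^ 3 = 1 := RepG.ext (((repc H G).mul rt).pow H 3) (repG_one H) (beqL_eq chkP)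
  have hnc : s * t ∉ Subgroup.center (threeJ3 F ω) := by
    intro h
    rw [Subgroup.mem_center_iff] at h
    have h1 := h s
    have h2 := RepG.cols_eq H ((h1 ▸ (repc H G).mul ((repc H G).mul rt)) :
      RepG ω (compT tC (compT tC (compT (compT (tA (1, 0)) tC) (powT (tA (1, 0)) 2)))) (s * t * s))
      (((repc H G).mul rt).mul (repc H G)) ((0, 1) : F9)
    have h3 : idx ((0, 1) : F9) = 1 := by decide
    rw [h3] at h2
    have h4 := chkN
    rw [h2] at h4
    simp at h4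
  set π := QuotientGroup.mk' (Subgroup.center (threeJ3 F ω)) with hπ
  refine ⟨π (s * t), ?_, ?_⟩
  · have : Fact (Nat.Prime 3) := ⟨Nat.prime_three⟩
    refine orderOf_eq_prime (by rw [← map_pow, hst, map_one]) fun h => hnc ((QuotientGroup.eq_one_iff _).1 h)
  · exact (IsReal.of_mul hs2 ht2).map π

theorem row (tab : Cfsg.Agent.OrdDiv.OrderTable.{u}) (known : Cfsg.Agent.H257.El.Known.{u}) {T : Type u} [Group T]
    (h : Cfsg.Spor.IsoJ3 T) : Cfsg.Agent.H453.OddM.Row T := by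
  have hc := NotCT.Orders.j3 h
  have : Finite T := Nat.finite_of_card_ne_zero (by rw [hc]; norm_num)
  have h3 : RealP T 3 := by
    obtain ⟨F, _, _, ω, hF, hω, ⟨e⟩⟩ := h
    obtain ⟨x, hx, hr⟩ := real_three hF hω
    exact ⟨e.symm x, by rw [MulEquiv.orderOf_eq, hx], hr.symm_map e⟩
  have h17 : RealP T 17 := by
    have := Fact.mk (show Nat.Prime 17 by norm_num)
    obtain ⟨x, hx⟩ := exists_prime_orderOf_dvd_card' (G := T) 17 (by rw [hc]; norm_num)
    refine ⟨x, hx, (norm_of_cent (r := 17) (n := 2954880) (c := 1) (e := 8) (by norm_num) (by rw [hc]) (by norm_num) hx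
      (by rw [(H898.J3Cent.seventeen h hx).1]) (by norm_num) (by norm_num)).2 (by decide)⟩
  refine row_of_two (n := 50232960) (l := [(2, 7), (3, 5), (5, 1), (17, 1), (19, 1)]) (r := 17) (nu := 8) (ss := [3])
    tab known hc (by norm_num) h17 (fun x hx => (H898.J3Cent.seventeen h hx).2) ?_ (by decide +kernel)
  intro s hs
  rw [List.mem_singleton] at hs
  subst hs
  exact ⟨by norm_num, h3, noOrd_of_cent (by norm_num) (fun x hx => (H898.J3Cent.seventeen h hx).1) (by norm_num)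
    (by norm_num)⟩

end Cfsg.Agent.H984.Odm.RowJ3
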